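/-
Kernel level definitions: permutations of at most 1024 points coded by numbers, stabiliser chains.
-/
import Cfsg.Agent.Comp.Defs
set_option autoImplicit false

namespace CF.Bf
open CF.Comp

/-- digit number `i` -/
noncomputable def dg (v i : Nat) : Nat :=
  Nat.land (Nat.shiftRight v (Nat.mul (nat_lit 10) i)) (nat_lit 1023)

/-- put `f i` at position `h i` -/
noncomputable def sc (f h : Nat → Nat) (n : Nat) : Nat :=
  Nat.rec (motive := fun _ => Nat) (nat_lit 0)
    (fun i r => Nat.add r (Nat.shiftLeft (f i) (Nat.mul (nat_lit 10) (h i)))) n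

noncomputable def pk (f : Nat → Nat) (n : Nat) : Nat := sc f (fun i => i) n
noncomputable def idc (n : Nat) : Nat := pk (fun i => i) n
noncomputable def mulc (n x y : Nat) : Nat := force x fun x => force y fun y =>
  Nat.rec (motive := fun _ => Nat) (nat_lit 0)
    (fun i r => Nat.add r (Nat.shiftLeft (Nat.land (Nat.shiftRight x (Nat.mul (nat_lit 10) (Nat.land (Nat.shiftRight y (Nat.mul (nat_lit 10) i)) (nat_lit 1023)))) (nat_lit 1023))
      (Nat.mul (nat_lit 10) i))) n
noncomputable def invc (n x : Nat) : Nat := force x fun x =>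
  Nat.rec (motive := fun _ => Nat) (nat_lit 0)
    (fun i r => Nat.add r (Nat.shiftLeft i
      (Nat.mul (nat_lit 10) (Nat.land (Nat.shiftRight x (Nat.mul (nat_lit 10) i)) (nat_lit 1023))))) n
/-- `g * x * g⁻¹` -/
noncomputable def cjc (n g x : Nat) : Nat := force g fun g => force x fun x =>
  Nat.rec (motive := fun _ => Nat) (nat_lit 0)
    (fun i r => Nat.add r (Nat.shiftLeft (Nat.land (Nat.shiftRight g (Nat.mul (nat_lit 10) (Nat.land (Nat.shiftRight x (Nat.mul (nat_lit 10) i)) (nat_lit 1023)))) (nat_lit 1023))
      (Nat.mul (nat_lit 10) (Nat.land (Nat.shiftRight g (Nat.mul (nat_lit 10) i)) (nat_lit 1023))))) n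
noncomputable def powc (n x k : Nat) : Nat :=
  force x fun x => Nat.rec (motive := fun _ => Nat) (idc n) (fun _ r => mulc n r x) k
noncomputable def comc (n x y : Nat) : Bool := force x fun x => force y fun y =>
  Nat.rec (motive := fun _ => Bool) true (fun i r => Bool.rec false r (Nat.beq
    (Nat.land (Nat.shiftRight x (Nat.mul (nat_lit 10) (Nat.land (Nat.shiftRight y (Nat.mul (nat_lit 10) i)) (nat_lit 1023)))) (nat_lit 1023))
    (Nat.land (Nat.shiftRight y (Nat.mul (nat_lit 10) (Nat.land (Nat.shiftRight x (Nat.mul (nat_lit 10) i)) (nat_lit 1023)))) (nat_lit 1023)))) n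
noncomputable def isI (n x : Nat) : Bool := Nat.beq x (idc n)
/-- `x * x = 1` -/
noncomputable def sqI (n x : Nat) : Bool := force x fun x =>
  Nat.rec (motive := fun _ => Bool) true (fun i r => Bool.rec false r (Nat.beq
    (Nat.land (Nat.shiftRight x (Nat.mul (nat_lit 10) (Nat.land (Nat.shiftRight x (Nat.mul (nat_lit 10) i)) (nat_lit 1023)))) (nat_lit 1023))
    i)) n
/-- a well formed code of a map -/
noncomputable def can (n v : Nat) : Bool :=
  Bool.rec false (allFrom (fun i => Nat.ble (Nat.succ (dg v i)) n) (nat_lit 0) n) (Nat.beq v (pk (dg v) n))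
/-- a well formed code of a permutation -/
noncomputable def prm (n v : Nat) : Bool := force (invc n v) fun w =>
  Bool.rec false (Bool.rec false (Bool.rec false (isI n (mulc n w v)) (isI n (mulc n v w))) (can n w)) (can n v)
/-- the value of a word -/
noncomputable def evc (n : Nat) (S w : List Nat) : Nat :=
  List.rec (motive := fun _ => Nat) (idc n) (fun k _ r => mulc n (nth (idc n) S k) r) w
noncomputable def isIn (v : Nat) (l : List Nat) : Bool := lany (Nat.beq v) l
/-- the non-zero members are values of words -/
noncomputable def wds (n : Nat) (S T : List Nat) : List (List Nat) → Bool :=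
  List.rec (motive := fun _ => List (List Nat) → Bool) (fun _ => true)
    (fun t _ ih W => List.rec (motive := fun _ => Bool) false
      (fun w V _ => Bool.rec false (ih V) (Bool.rec (Nat.beq t (evc n S w)) true (Nat.beq t (nat_lit 0)))) W) T

/-- base point, generators, inverse transversal with words, words for the next generators -/
structure Lv where
  b : Nat
  S : List Nat
  T : List Nat
  W : List (List Nat)
  V : List (List Nat)

noncomputable def gn (c : List Lv) : List Nat := List.rec (motive := fun _ => List Nat) [] (fun l _ _ => l.S) c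

noncomputable def mem (n : Nat) (c : List Lv) : Nat → Bool :=
  List.rec (motive := fun _ => Nat → Bool) (isI n) (fun l _ ih v => force v fun v =>
    force (nth (nat_lit 0) l.T (dg v l.b)) fun u => Bool.rec (ih (mulc n u v)) false (Nat.beq u (nat_lit 0))) c

noncomputable def allP (n : Nat) (Φ : Nat → Bool) (c : List Lv) : Nat → Bool :=
  List.rec (motive := fun _ => Nat → Bool) Φ (fun l _ ih v =>
    lall (fun u => Bool.rec (force (mulc n u v) ih) true (Nat.beq u (nat_lit 0))) l.T) c

noncomputable def all (n : Nat) (c : List Lv) (Φ : Nat → Bool) : Bool := allP n Φ c (idc n)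
noncomputable def any (n : Nat) (c : List Lv) (Φ : Nat → Bool) : Bool :=
  Bool.rec true false (all n c fun v => Bool.rec true false (Φ v))

noncomputable def cnt (T : List Nat) (n : Nat) : Nat :=
  Nat.rec (motive := fun _ => Nat) (nat_lit 0)
    (fun j r => Bool.rec (Nat.succ r) r (Nat.beq (nth (nat_lit 0) T j) (nat_lit 0))) n

noncomputable def ord (n : Nat) (c : List Lv) : Nat :=
  List.rec (motive := fun _ => Nat) (nat_lit 1) (fun l _ r => Nat.mul (cnt l.T n) r) c

noncomputable def lvOK (n : Nat) (l : Lv) (c : List Lv) : Bool :=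
  lall (fun t => t) [Nat.ble (Nat.succ l.b) n, Nat.ble (llen l.T) n, wds n l.S l.T l.W, wds n l.S (gn c) l.V,
    lall (fun s => Bool.rec (Nat.beq (dg s l.b) l.b) false (Nat.beq s (nat_lit 0))) (gn c), mem n (l :: c) (idc n),
    allFrom (fun j => force (nth (nat_lit 0) l.T j) fun u =>
      Bool.rec (Bool.rec false (force (invc n u) fun w => lall (fun s => mem n (l :: c) (mulc n s w)) l.S)
        (Nat.beq (dg u j) l.b)) true (Nat.beq u (nat_lit 0))) (nat_lit 0) n]

noncomputable def chk (n : Nat) (c : List Lv) : Bool :=
  List.rec (motive := fun _ => Bool) true (fun l c r => Bool.rec false r (lvOK n l c)) c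

/-- count new conjugates along a walk -/
noncomputable def walk (n P : Nat) (S ks : List Nat) : Nat → Nat → Nat → Nat :=
  List.rec (motive := fun _ => Nat → Nat → Nat → Nat) (fun _ _ a => a) (fun k _ ih v M a =>
    force (cjc n (nth (idc n) S k) v) fun v => force (Nat.mod v P) fun h =>
      Bool.rec (force (Nat.lor M (Nat.shiftLeft (nat_lit 1) h)) fun M => force (Nat.succ a) (ih v M)) (ih v M a) (tb M h)) ks

/-- the fixed point sets separate the points -/
noncomputable def sepF (n : Nat) (L : List Nat) : Bool :=
  allFrom (fun i => allFrom (fun j => lany (fun y => Bool.rec (Nat.beq (dg y j) j)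
    (Bool.rec true false (Nat.beq (dg y j) j)) (Nat.beq (dg y i) i)) L) (nat_lit 0) i) (nat_lit 0) n

end CF.Bf
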