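/-
Coded permutations: soundness of the kernel level definitions.
-/
import Cfsg.Agent.Bf.D
import Cfsg.Agent.Fisch.St.Ext
set_option autoImplicit false
set_option linter.unusedSectionVars false

namespace CF.Bf
open CF.Comp Subgroup Finset

variable {n i v w : ℕ}

section
variable {f h : ℕ → ℕ}

theorem dg_eq (v i : ℕ) : dg v i = v / 1024 ^ i % 1024 := by
  rw [dg, shr_eq, show Nat.mul (nat_lit 10) i = 10 * i from rfl, pow_mul]
  exact Nat.and_two_pow_sub_one_eq_mod _ 10

theorem sc_eq (f h : ℕ → ℕ) (n : ℕ) : sc f h n = ∑ i ∈ range n, f i * 1024 ^ h i := by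
  induction n with
  | zero => rfl
  | succ n ih =>
    rw [sum_range_succ, ← ih, show (1024 : ℕ) = 2 ^ 10 from rfl, ← pow_mul, ← shl_eq]; rfl

theorem pk_succ (f : ℕ → ℕ) (n : ℕ) : pk f (n + 1) = pk f n + f n * 1024 ^ n := by
  simp only [pk, sc_eq, sum_range_succ]

theorem pk_congr (e : ∀ i < n, f i = h i) : pk f n = pk h n := by
  simp only [pk, sc_eq]; exact sum_congr rfl fun i m => by rw [e i (mem_range.1 m)]

theorem pk_lt (e : ∀ i < n, f i < 1024) : pk f n < 1024 ^ n := by
  induction n with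
  | zero => exact Nat.one_pos
  | succ n ih =>
    have := ih fun i m => e i (m.trans n.lt_succ_self)
    have := Nat.mul_le_mul_right (1024 ^ n) (Nat.succ_le_of_lt (e n n.lt_succ_self))
    rw [pk_succ, pow_succ]; nlinarith

theorem dg_pk (e : ∀ i < n, f i < 1024) (m : i < n) : dg (pk f n) i = f i := by
  induction n with
  | zero => omega
  | succ n ih =>
    have e' := fun i (m : i < n) => e i (m.trans n.lt_succ_self)
    rw [pk_succ, dg_eq]
    rcases (Nat.le_of_lt_succ m).eq_or_lt with rfl | m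
    · rw [Nat.add_mul_div_right _ _ (by positivity), Nat.div_eq_of_lt (pk_lt e'), zero_add,
        Nat.mod_eq_of_lt (e i i.lt_succ_self)]
    · obtain ⟨k, rfl⟩ := Nat.exists_eq_add_of_lt m
      rw [pow_succ, pow_add, show f (i + k + 1) * (1024 ^ i * 1024 ^ k * 1024) = f (i + k + 1) * 1024 ^ k * 1024 * 1024 ^ i by ring,
        Nat.add_mul_div_right _ _ (by positivity), Nat.add_mul_mod_self_right, ← dg_eq, ih e' m]

theorem sc_perm {σ : Equiv.Perm ℕ} (s : Supp n σ) (e : ∀ i < n, h i = σ i) : sc f h n = pk (fun j => f (σ⁻¹ j)) n := by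
  simp only [pk, sc_eq]
  exact sum_nbij' σ (σ⁻¹ : Equiv.Perm ℕ) (fun i m => mem_range.2 (s.lt (mem_range.1 m))) (fun i m => mem_range.2 (s.inv.lt (mem_range.1 m)))
    (fun i _ => pinv_app σ i) (fun i _ => papp_inv σ i) fun i m => by rw [e i (mem_range.1 m), pinv_app]

end

theorem mulc_eq (n x y : ℕ) : mulc n x y = pk (fun i => dg x (dg y i)) n := (force_eq _ _).trans (force_eq _ _)
theorem invc_eq (n x : ℕ) : invc n x = sc (fun i => i) (dg x) n := force_eq _ _
theorem cjc_eq (n g x : ℕ) : cjc n g x = sc (fun i => dg g (dg x i)) (dg g) n := (force_eq _ _).trans (force_eq _ _)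

theorem rec_all {f : ℕ → Bool} : (Nat.rec true (fun i r => Bool.rec false r (f i)) n : Bool) = true ↔ ∀ i < n, f i = true := by
  induction n with
  | zero => simp
  | succ n ih => rw [Nat.forall_lt_succ_right, ← ih, and_comm, ← brec_and]

theorem comc_iff {x y : ℕ} : comc n x y = true ↔ ∀ i < n, dg x (dg y i) = dg y (dg x i) := by
  rw [comc, force_eq, force_eq, rec_all]; simp only [beq_iff]; rfl

theorem sqI_iff {x : ℕ} : sqI n x = true ↔ ∀ i < n, dg x (dg x i) = i := by
  rw [sqI, force_eq, rec_all]; simp only [beq_iff]; rfl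

theorem can_iff : can n v = true ↔ v = pk (dg v) n ∧ ∀ i < n, dg v i < n := by
  simp only [can, brec_and, beq_iff, allFrom_zero, ble_iff, Nat.succ_le_iff]

theorem isIn_iff {l : List ℕ} : isIn v l = true ↔ v ∈ l := by simp [isIn, lany_iff]

theorem bnot_iff {a : Bool} : (Bool.rec true false a : Bool) = true ↔ ¬ a = true := by cases a <;> simp

/-- a faithful action on the numbers below `n` -/
structure Cd (G : Type*) [Group G] (n : ℕ) where
  p : G →* Equiv.Perm ℕ
  inj : Function.Injective p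
  sp : ∀ g, Supp n (p g)
  hn : n ≤ 1024
  h1 : 1 < n

namespace Cd
variable {G : Type*} [Group G] (C : Cd G n) {x y g : G} {K L : Subgroup G} {S T : List ℕ}

/-- the code -/
noncomputable def c (g : G) : ℕ := pk (C.p g) n

theorem lt (g : G) (m : i < n) : C.p g i < n := (C.sp g).lt m

theorem dg_c (g : G) (m : i < n) : dg (C.c g) i = C.p g i := dg_pk (fun _ m => (C.lt g m).trans_le C.hn) m

include C in
theorem finite : Finite G := Finite.of_injective (fun (g : G) (i : Fin n) => (⟨C.p g i, C.lt g i.2⟩ : Fin n))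
  fun a b e => C.inj (Supp.ext (C.sp a) (C.sp b) fun i m => congrArg Fin.val (congrFun e ⟨i, m⟩))

theorem ext (e : ∀ i < n, C.p x i = C.p y i) : x = y := C.inj (Supp.ext (C.sp x) (C.sp y) e)

theorem eq : C.c x = C.c y ↔ x = y :=
  ⟨fun e => C.ext fun i m => by rw [← C.dg_c x m, e, C.dg_c y m], congrArg _⟩

theorem beq : Nat.beq (C.c x) (C.c y) = true ↔ x = y := beq_iff.trans C.eq

theorem one : idc n = C.c 1 := pk_congr fun _ _ => by rw [map_one]; rfl

theorem mul : mulc n (C.c x) (C.c y) = C.c (x * y) := by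
  rw [mulc_eq]
  exact pk_congr fun i m => by rw [C.dg_c y m, C.dg_c x (C.lt y m), map_mul]; rfl

theorem inv : invc n (C.c x) = C.c x⁻¹ := by
  rw [invc_eq, sc_perm (C.sp x) fun _ => C.dg_c x, c, map_inv]

theorem cj : cjc n (C.c g) (C.c x) = C.c (g * x * g⁻¹) := by
  rw [cjc_eq, sc_perm (C.sp g) fun _ => C.dg_c g]
  exact pk_congr fun i m => by
    rw [C.dg_c x ((C.sp g).inv.lt m), C.dg_c g (C.lt x ((C.sp g).inv.lt m)), map_mul, map_mul, map_inv]; rfl

theorem pow (k : ℕ) : powc n (C.c x) k = C.c (x ^ k) := by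
  rw [powc, force_eq]
  induction k with
  | zero => exact C.one.trans (by rw [pow_zero])
  | succ k ih => exact (congrArg (mulc n · _) ih).trans (by rw [C.mul, pow_succ])

theorem com : comc n (C.c x) (C.c y) = true ↔ x * y = y * x := by
  rw [comc_iff]
  refine ⟨fun e => C.ext fun i m => ?_, fun e i m => ?_⟩
  · have := e i m
    rwa [C.dg_c y m, C.dg_c x m, C.dg_c x (C.lt y m), C.dg_c y (C.lt x m), ← Equiv.Perm.mul_apply,
      ← Equiv.Perm.mul_apply, ← map_mul, ← map_mul] at this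
  · rw [C.dg_c y m, C.dg_c x m, C.dg_c x (C.lt y m), C.dg_c y (C.lt x m), ← Equiv.Perm.mul_apply,
      ← Equiv.Perm.mul_apply, ← map_mul, ← map_mul, e]

theorem isI : isI n (C.c x) = true ↔ x = 1 := by rw [Bf.isI, C.one, C.beq]

theorem sqI : sqI n (C.c x) = true ↔ x * x = 1 := by
  rw [sqI_iff]
  refine ⟨fun e => C.ext fun i m => ?_, fun e i m => ?_⟩
  · have := e i m
    rw [C.dg_c x m, C.dg_c x (C.lt x m), ← Equiv.Perm.mul_apply, ← map_mul] at this
    rw [this, map_one]; rfl
  · rw [C.dg_c x m, C.dg_c x (C.lt x m), ← Equiv.Perm.mul_apply, ← map_mul, e, map_one]; rfl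

theorem ne0 (g : G) : C.c g ≠ 0 := fun e => by
  have a := C.dg_c g (C.h1.trans' Nat.one_pos)
  have b := C.dg_c g C.h1
  rw [e, dg_eq] at a b
  exact absurd ((C.p g).injective (a.symm.trans (by simpa using b))) (by decide)

/-- all listed numbers are codes of elements of `K` -/
def In (K : Subgroup G) (S : List ℕ) : Prop := ∀ v ∈ S, ∃ x ∈ K, C.c x = v

/-- the subgroup generated by the listed codes -/
def cl (S : List ℕ) : Subgroup G := closure {x | C.c x ∈ S}

theorem mem_cl (m : C.c x ∈ S) : x ∈ C.cl S := subset_closure m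

theorem cl_le : C.cl S ≤ K ↔ ∀ x, C.c x ∈ S → x ∈ K := closure_le K

variable {C}

theorem In.mono (a : C.In K S) (l : K ≤ L) : C.In L S := fun v m => (a v m).imp fun _ q => ⟨l q.1, q.2⟩

theorem In.cl (a : C.In K S) : C.In (C.cl S) S := fun v m =>
  let ⟨x, _, e⟩ := a v m; ⟨x, C.mem_cl (e ▸ m), e⟩

theorem In.le (a : C.In K S) : C.cl S ≤ K := C.cl_le.2 fun _ m =>
  let ⟨_, q, e⟩ := a _ m; C.eq.1 e ▸ q

theorem In.nth (a : C.In K S) (k : ℕ) : ∃ x ∈ K, C.c x = nth (idc n) S k :=
  (nth_mem_or _ S k).elim (a _) fun e => ⟨1, one_mem _, C.one.symm.trans e.symm⟩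

theorem In.evc (a : C.In K S) (w : List ℕ) : ∃ x ∈ K, C.c x = evc n S w := by
  induction w with
  | nil => exact ⟨1, one_mem _, C.one.symm⟩
  | cons k w ih =>
    obtain ⟨x, p, e⟩ := ih
    obtain ⟨y, q, f⟩ := a.nth k
    exact ⟨y * x, mul_mem q p, by rw [← C.mul, e, f]; rfl⟩

theorem In.wds (a : C.In K S) {W : List (List ℕ)} (h : wds n S T W = true) : ∀ v ∈ T, v ≠ 0 → ∃ x ∈ K, C.c x = v := by
  induction T generalizing W with
  | nil => simp
  | cons t T ih =>
    cases W with
    | nil => exact nomatch h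
    | cons w W =>
      obtain ⟨p, q⟩ := brec_and.1 h
      rw [List.forall_mem_cons]
      exact ⟨fun r => beq_iff.1 ((brec_or.1 p).resolve_left (mt beq_iff.1 r)) ▸ a.evc w, ih q⟩

theorem of_mul (h : can n v = true) (e : mulc n (C.c x) v = C.c y) : C.c (x⁻¹ * y) = v := by
  obtain ⟨a, b⟩ := can_iff.1 h
  rw [a]
  refine pk_congr fun i m => ?_
  rw [mulc_eq] at e
  rw [map_mul, Equiv.Perm.mul_apply, ← C.dg_c y m, ← e, dg_pk (fun j m => by
    rw [C.dg_c x (b j m)]; exact (C.lt x (b j m)).trans_le C.hn) m, C.dg_c x (b i m), map_inv, pinv_app]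

theorem can_mul (h : can n v = true) : can n (mulc n (C.c x) v) = true := by
  obtain ⟨-, b⟩ := can_iff.1 h
  have k : ∀ i < n, dg (C.c x) (dg v i) < n := fun i m => C.dg_c x (b i m) ▸ C.lt x (b i m)
  simp only [mulc_eq, can_iff]
  have := fun i => dg_pk (i := i) fun j m => (k j m).trans_le C.hn
  exact ⟨pk_congr fun i m => (this i m).symm, fun i m => this i m ▸ k i m⟩

theorem can_c : can n (C.c x) = true :=
  can_iff.2 ⟨pk_congr fun _ m => (C.dg_c x m).symm, fun _ m => C.dg_c x m ▸ C.lt x m⟩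

variable (C) in
/-- the chain describes the subgroup -/
structure Ch (c : List Lv) (K : Subgroup G) : Prop where
  eq : K = C.cl (gn c)
  rz : C.In K (gn c)
  rl : ∀ v, can n v = true → mem n c v = true → ∃ x ∈ K, C.c x = v
  cov : ∀ x ∈ K, mem n c (C.c x) = true
  al : ∀ Φ g, allP n Φ c (C.c g) = true ↔ ∀ x ∈ K, Φ (C.c (x * g)) = true
  card : Nat.card K = ord n c

theorem cnt_eq (T : List ℕ) (n : ℕ) : cnt T n = #{j ∈ range n | nth 0 T j ≠ 0} := by
  induction n with
  | zero => rfl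
  | succ n ih =>
    rw [range_add_one, filter_insert]
    change (Bool.rec (Nat.succ (cnt T n)) (cnt T n) (Nat.beq (nth 0 T n) 0) : ℕ) = _
    split_ifs with q
    · rw [beq_false_iff.2 q, card_insert_of_notMem (by simp), ih]
    · rw [beq_iff.2 (not_not.1 q), ih]

theorem mem_cons {l : Lv} {c : List Lv} : mem n (l :: c) v = true ↔
    nth 0 l.T (dg v l.b) ≠ 0 ∧ mem n c (mulc n (nth 0 l.T (dg v l.b)) v) = true := by
  rw [← beq_false_iff, ← brec_not_and]
  rw [show mem n (l :: c) v = force v fun v => force (nth 0 l.T (dg v l.b)) fun u =>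
    Bool.rec (mem n c (mulc n u v)) false (Nat.beq u 0) from rfl, force_eq, force_eq]

theorem ch {c : List Lv} (a : C.In ⊤ (gn c)) (h : chk n c = true) : C.Ch c (C.cl (gn c)) := by
  have := C.finite
  induction c with
  | nil =>
    have e : C.cl (gn []) = ⊥ := eq_bot_iff.2 (C.cl_le.2 fun _ m => nomatch m)
    exact ⟨rfl, a.cl, fun v _ q => ⟨1, one_mem _, C.one.symm.trans (beq_iff.1 q).symm⟩, fun x m => C.isI.2 (e.le m),
      fun Φ g => by simp [e, allP], by rw [e, card_bot]; rfl⟩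
  | cons l c ih =>
    obtain ⟨h, h'⟩ := brec_and.1 h
    simp only [lvOK, lall_iff (f := fun t => t), List.mem_cons, List.not_mem_nil, or_false, forall_eq_or_imp, forall_eq,
      ble_iff, llen_eq, lall_iff, allFrom_zero, force_eq, brec_or, brec_and, brec_not_and, beq_iff, beq_false_iff, Nat.succ_le_iff] at h
    obtain ⟨h1, h2, h3, h4, h5, h6, h7⟩ := h
    replace a : C.In (C.cl l.S) l.S := a.cl
    have t := a.wds h3
    have t' : ∀ {j}, nth 0 l.T j ≠ 0 → ∃ x ∈ C.cl l.S, C.c x = nth 0 l.T j := fun q =>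
      t _ ((nth_mem_or _ _ _).resolve_right q) q
    have s : C.In (C.cl l.S) (gn c) := fun v m => a.wds h4 v m (h5 v m).1
    have I := ih (s.mono le_top) h'
    have fx : ∀ {y}, y ∈ C.cl (gn c) → C.p y l.b = l.b := fun m =>
      (C.cl_le (K := (MulAction.stabilizer _ l.b).comap C.p)).2 (fun x m => (C.dg_c x h1).symm.trans (h5 _ m).2) m
    have M : ∀ {x}, mem n (l :: c) (C.c x) = true ↔ ∃ u, C.c u = nth 0 l.T (C.p x l.b) ∧ u * x ∈ C.cl (gn c) := fun {x} => by
      rw [mem_cons, C.dg_c x h1]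
      refine ⟨fun ⟨p, q⟩ => ?_, fun ⟨u, p, q⟩ => p ▸ ⟨C.ne0 u, C.mul.symm ▸ I.cov _ q⟩⟩
      obtain ⟨u, -, e⟩ := t' p
      rw [← e, C.mul] at q
      obtain ⟨y, m, f⟩ := I.rl _ can_c q
      exact ⟨u, e, C.eq.1 f ▸ m⟩
    have cov : ∀ x ∈ C.cl l.S, mem n (l :: c) (C.c x) = true := fun x m => by
      have k : ∀ s, C.c s ∈ l.S → ∀ x, mem n (l :: c) (C.c x) = true → mem n (l :: c) (C.c (s * x)) = true :=
        fun s m x q => by
          obtain ⟨u, p, q⟩ := M.1 q
          have := ((h7 _ (C.lt x h1)).resolve_left (p ▸ C.ne0 u)).2 _ m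
          rw [← p, C.inv, C.mul] at this
          obtain ⟨w, p', q'⟩ := M.1 this
          refine M.2 ⟨w, ?_, by simpa [mul_assoc] using mul_mem q' q⟩
          rw [p', ← fx q, ← Equiv.Perm.mul_apply, ← map_mul, fx q, mul_assoc, inv_mul_cancel_left]
      refine closure_induction_left (p := fun x _ => mem n (l :: c) (C.c x) = true) (C.one ▸ h6)
        (fun s m x _ => k s m x) (fun s m x _ q => ?_) m
      have : ∀ i : ℕ, mem n (l :: c) (C.c (s ^ i * x)) = true := fun i => by
        induction i with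
        | zero => simpa using q
        | succ i ih => rw [pow_succ', mul_assoc]; exact k s m _ ih
      have := this (orderOf s - 1)
      rwa [pow_sub _ (orderOf_pos s), pow_orderOf_eq_one, pow_one, one_mul] at this
    refine ⟨rfl, a, fun v p q => ?_, cov, fun Φ g => ?_, ?_⟩
    · obtain ⟨q, r⟩ := mem_cons.1 q
      obtain ⟨u, m, e⟩ := t' q
      rw [← e] at r
      obtain ⟨y, m', f⟩ := I.rl _ (can_mul p) r
      exact ⟨_, mul_mem (inv_mem m) (s.le m'), of_mul p f.symm⟩
    · change lall (fun u => Bool.rec (force (mulc n u (C.c g)) (allP n Φ c)) true (Nat.beq u 0)) l.T = true ↔ _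
      simp only [lall_iff, brec_or, force_eq, beq_iff]
      refine ⟨fun q x m => ?_, fun q v m => or_iff_not_imp_left.2 fun r => ?_⟩
      · obtain ⟨u, p, r⟩ := M.1 (cov _ (inv_mem m))
        have := (q _ ((nth_mem_or _ _ _).resolve_right (p ▸ C.ne0 u))).resolve_left (p ▸ C.ne0 u)
        rw [← p, C.mul] at this
        simpa [mul_assoc] using (I.al Φ _).1 this _ (inv_mem r)
      · obtain ⟨u, p, rfl⟩ := t v m r
        rw [C.mul, I.al]
        exact fun x m => mul_assoc x u g ▸ q _ (mul_mem (s.le m) p)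
    · let _ := MulAction.compHom ℕ C.p
      change Nat.card (C.cl l.S) = cnt l.T n * ord n c
      rw [card_eq_orb_mul _ l.b, ← I.card, cnt_eq, ← Set.ncard_coe_finset]
      refine congrArg₂ (· * ·) (congrArg Set.ncard ?_) (congrArg (fun K : Subgroup G => Nat.card K) ?_)
      · ext j
        simp only [coe_filter, mem_range, Set.mem_ofPred_eq]
        refine ⟨?_, fun ⟨p, q⟩ => ?_⟩
        · rintro ⟨x, m, rfl⟩
          obtain ⟨u, p, -⟩ := M.1 (cov x m)
          exact ⟨C.lt x h1, (show C.c u = nth 0 l.T (x • l.b) from p) ▸ C.ne0 u⟩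
        · obtain ⟨u, m, e⟩ := t' q
          refine ⟨u⁻¹, inv_mem m, show C.p u⁻¹ l.b = j from ?_⟩
          rw [← ((h7 j p).resolve_left q).1, ← e, C.dg_c u p, map_inv, pinv_app]
      · ext x
        refine (show _ ∈ stabIn (C.cl l.S) l.b ↔ x ∈ C.cl (gn c) from ⟨fun ⟨m, e⟩ => ?_, fun m => ⟨s.le m, fx m⟩⟩)
        obtain ⟨u, p, q⟩ := M.1 (cov x m)
        obtain ⟨w, p', q'⟩ := M.1 (C.one ▸ h6)
        rw [show C.p x l.b = l.b from e] at p
        rw [map_one, Equiv.Perm.one_apply, ← p, C.eq] at p'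
        simpa [p'] using mul_mem (inv_mem q') q

namespace Ch
variable {c : List Lv} (h : C.Ch c K)
include h

theorem mem : mem n c (C.c x) = true ↔ x ∈ K :=
  ⟨fun q => let ⟨_, m, e⟩ := h.rl _ can_c q; C.eq.1 e ▸ m, h.cov x⟩

theorem all {Φ : ℕ → Bool} : all n c Φ = true ↔ ∀ x ∈ K, Φ (C.c x) = true := by
  simp only [Bf.all, C.one, h.al, mul_one]

theorem any {Φ : ℕ → Bool} : any n c Φ = true ↔ ∃ x ∈ K, Φ (C.c x) = true := by
  simp only [Bf.any, bnot_iff, h.all, not_forall, not_not, exists_prop]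

theorem rlz (q : lall (fun v => can n v && Bf.mem n c v) S = true) : C.In K S := fun v m =>
  have := Bool.and_eq_true_iff.1 (lall_iff.1 q v m); h.rl v this.1 this.2

theorem sub {c' : List Lv} (q : (lall (fun v => can n v && Bf.mem n c v) (gn c') && chk n c') = true) :
    ∃ L ≤ K, C.Ch c' L :=
  have := Bool.and_eq_true_iff.1 q; ⟨_, (h.rlz this.1).le, ch ((h.rlz this.1).mono le_top) this.2⟩

theorem le (q : ∀ x, C.c x ∈ gn c → x ∈ L) : K ≤ L := h.eq ▸ C.cl_le.2 q

theorem le' {c' : List Lv} (h' : C.Ch c' L) (q : lall (Bf.mem n c') (gn c) = true) : K ≤ L :=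
  h.le fun _ m => h'.mem.1 (lall_iff.1 q _ m)

theorem cent (q : lall (comc n (C.c x)) (gn c) = true) : K ≤ centralizer {x} :=
  h.le fun _ m => mem_centralizer_singleton_iff.2 (C.com.1 (lall_iff.1 q _ m)).symm

theorem norm (q : lall (fun v => Bf.mem n c (cjc n (C.c x) v)) (gn c) = true) : x ∈ normalizer (K : Set G) := by
  have := C.finite
  have l : K ≤ K.comap (MulAut.conj x).toMonoidHom := h.le fun y m => h.mem.1 (C.cj ▸ lall_iff.1 q _ m)
  exact mem_normalizer_fintype fun _ m => l m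

theorem nrm {c' : List Lv} (h' : C.Ch c' L)
    (q : lall (fun g => lall (fun v => Bf.mem n c (cjc n g v)) (gn c)) (gn c') = true) : L ≤ normalizer (K : Set G) :=
  h'.le fun _ m => h.norm (lall_iff.1 q _ m)

theorem cen : lall (comc n (C.c x)) (gn c) = true ↔ x ∈ centralizer (K : Set G) :=
  ⟨fun q => mem_centralizer_iff.2 fun _ m => mem_centralizer_singleton_iff.1 (h.cent q m), fun q => lall_iff.2 fun v m =>
    let ⟨y, p, e⟩ := h.rz v m; e ▸ C.com.2 (mem_centralizer_iff.1 q y p).symm⟩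

theorem el (q : (can n v && Bf.mem n c v) = true) : ∃ x ∈ K, C.c x = v :=
  have := Bool.and_eq_true_iff.1 q; h.rl v this.1 this.2

theorem card' {m : ℕ} (q : Nat.beq (ord n c) m = true) : Nat.card K = m := h.card.trans (beq_iff.1 q)

end Ch

theorem walk_le (a : C.In K S) (P : ℕ) (ks : List ℕ) (r : G) :
    walk n P S ks (C.c r) 0 0 ≤ (centralizer {r}).relIndex K := by
  classical
  have := C.finite
  have k : ∀ (g : G) (M : ℕ) (s : Finset G), g ∈ K → (∀ y ∈ s, (∃ z ∈ K, z * r * z⁻¹ = y) ∧ M.testBit (C.c y % P)) →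
      ∃ t : Finset G, (∀ y ∈ t, ∃ z ∈ K, z * r * z⁻¹ = y) ∧ walk n P S ks (C.c (g * r * g⁻¹)) M #s = #t := by
    induction ks with
    | nil => exact fun g M s _ q => ⟨s, fun y m => (q y m).1, rfl⟩
    | cons k ks ih =>
      intro g M s m q
      obtain ⟨x, p, e⟩ := a.nth k
      rw [show walk n P S (k :: ks) (C.c (g * r * g⁻¹)) M #s = force (cjc n (nth (idc n) S k) (C.c (g * r * g⁻¹))) fun v =>
        force (v % P) fun h => Bool.rec (force (M ||| Nat.shiftLeft (nat_lit 1) h) fun M => force (#s + 1) (walk n P S ks v M))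
          (walk n P S ks v M #s) (tb M h) from rfl, force_eq, force_eq, ← e, C.cj, tb_eq,
        show x * (g * r * g⁻¹) * x⁻¹ = x * g * r * (x * g)⁻¹ by group]
      cases u : M.testBit (C.c (x * g * r * (x * g)⁻¹) % P)
      · rw [force_eq, force_eq, ← card_insert_of_notMem (a := x * g * r * (x * g)⁻¹) fun v => nomatch u.symm.trans (q _ v).2]
        refine ih _ _ _ (mul_mem p m) fun y v => ?_
        rw [Nat.testBit_or, one_shl]
        rcases mem_insert.1 v with rfl | v
        · exact ⟨⟨_, mul_mem p m, rfl⟩, by simp⟩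
        · exact ⟨(q y v).1, by simp [(q y v).2]⟩
      · exact ih _ _ _ (mul_mem p m) q
  obtain ⟨t, p, e⟩ := k 1 0 ∅ (one_mem _) (by simp)
  rw [one_mul, inv_one, mul_one, Finset.card_empty] at e
  let _ := MulAction.compHom G (MulAut.conj (G := G))
  rw [e, ← inf_relIndex_right, inf_comm, show K ⊓ centralizer {r} = stabIn K r from Subgroup.ext fun x =>
    and_congr_right' (mem_centralizer_singleton_iff.trans mul_inv_eq_iff_eq_mul.symm), relIndex_stabIn,
    ← Set.ncard_coe_finset]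
  exact Set.ncard_le_ncard p (Set.toFinite _)

/-- an exact centralizer -/
theorem cent_eq (a : C.In K S) {P m : ℕ} {ks : List ℕ} {r : G} (q : Nat.ble m (walk n P S ks (C.c r) 0 0) = true)
    (l : L ≤ K) (l' : L ≤ centralizer {r}) (k : Nat.card K ≤ m * Nat.card L) : K ⊓ centralizer {r} = L := by
  have := C.finite
  refine (eq_of_le_of_card_le (le_inf l l') ?_).symm
  have e := card_eq_card_quotient_mul_card_subgroup ((centralizer {r}).subgroupOf K)
  rw [← index_eq_card, ← relIndex, ← inf_subgroupOf_right, Nat.card_congr (subgroupOfEquivOfLe inf_le_right).toEquiv,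
    inf_comm] at e
  have := Nat.mul_le_mul_right (Nat.card L) ((ble_iff.1 q).trans (walk_le a P ks r))
  exact Nat.le_of_mul_le_mul_left (e ▸ k.trans this) (Nat.pos_of_ne_zero index_ne_zero_of_finite)

theorem sep (a : C.In K S) (q : sepF n S = true) : centralizer (K : Set G) = ⊥ := eq_bot_iff.2 fun z m => by
  simp only [sepF, allFrom_zero, lany_iff] at q
  have k : ∀ {y i}, y ∈ K → (C.p y (C.p z i) = C.p z i ↔ C.p y i = i) := fun {y i} p => by
    rw [← Equiv.Perm.mul_apply, ← map_mul, mem_centralizer_iff.1 m y p, map_mul, Equiv.Perm.mul_apply,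
      (C.p z).apply_eq_iff_eq]
  have f : ∀ {i j}, i < n → j < i → (∀ {y}, y ∈ K → (C.p y j = j ↔ C.p y i = i)) → False := fun {i j} p r t => by
    obtain ⟨v, u', w⟩ := q i p j r
    obtain ⟨y, u, rfl⟩ := a v u'
    rw [C.dg_c y p, C.dg_c y (r.trans p)] at w
    by_cases e : C.p y i = i
    · rw [beq_iff.2 e, bnot_iff, beq_iff] at w; exact w ((t u).2 e)
    · rw [beq_false_iff.2 e, beq_iff] at w; exact e ((t u).1 w)
  refine C.ext fun i p => (map_one C.p).symm ▸ by_contra fun e => ?_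
  rcases Nat.lt_or_gt_of_ne e with r | r
  exacts [f p r k, f (C.lt z p) r fun u => (k u).symm]

variable (C) in
/-- restriction to a subgroup -/
def sub (K : Subgroup G) : Cd K n :=
  ⟨C.p.comp K.subtype, C.inj.comp Subtype.val_injective, fun g => C.sp g, C.hn, C.h1⟩

theorem sub_c (x : K) : (C.sub K).c x = C.c x := rfl

theorem In.sub (a : C.In K S) : (C.sub K).In ⊤ S := fun v m => let ⟨x, p, e⟩ := a v m; ⟨⟨x, p⟩, trivial, e⟩

theorem sub_top : (C.sub (C.cl S)).cl S = ⊤ := closure_closure_coe_preimage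

/-- all permutations -/
def sym (hn : n ≤ 1024) (h1 : 1 < n) : Cd (suppGrp n) n :=
  ⟨(suppGrp n).subtype, Subtype.val_injective, fun g => g.2, hn, h1⟩

theorem sym_in {hn : n ≤ 1024} {h1 : 1 < n} (q : lall (prm n) S = true) : (sym hn h1).In ⊤ S := fun v m => by
  have := lall_iff.1 q v m
  simp only [prm, force_eq, brec_and, Bf.isI, beq_iff, mulc_eq, can_iff] at this
  generalize invc n v = w at this
  obtain ⟨⟨a, b⟩, ⟨-, d⟩, e, f⟩ := this
  have k : ∀ {v w}, (∀ i < n, dg v i < n) → (∀ i < n, dg w i < n) → pk (fun i => dg v (dg w i)) n = idc n → ∀ i,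
      (if (if i < n then dg w i else i) < n then dg v (if i < n then dg w i else i) else if i < n then dg w i else i) = i :=
    fun b d e i => by
      by_cases r : i < n
      · have := congrArg (dg · i) e
        rw [dg_pk (fun j u => (b _ (d j u)).trans_le hn) r, idc, dg_pk (fun j u => u.trans_le hn) r] at this
        simp [r, d i r, this]
      · simp [r]
  exact ⟨⟨⟨fun i => if i < n then dg v i else i, fun i => if i < n then dg w i else i, k d b f, k b d e⟩,
    fun i r => if_neg r.not_gt⟩, trivial, (pk_congr fun i r => if_pos r).trans a.symm⟩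

/-- a group given by generating codes and a chain -/
theorem exists_grp {c : List Lv} (hn : n ≤ 1024) (h1 : 1 < n) (q : (lall (prm n) (gn c) && chk n c) = true) :
    ∃ (H : Type) (_ : Group H) (C : Cd H n), C.Ch c ⊤ :=
  have := Bool.and_eq_true_iff.1 q
  ⟨_, _, (sym hn h1).sub ((sym hn h1).cl (gn c)), sub_top (C := sym hn h1) ▸ ch (sym_in this.1).cl.sub this.2⟩

/-- permutations of `Fin n` -/
noncomputable def fin (hn : n ≤ 1024) (h1 : 1 < n) : Cd (Equiv.Perm (Fin n)) n :=
  ⟨Equiv.Perm.extendDomainHom Fin.equivSubtype, Equiv.Perm.extendDomainHom_injective _,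
    fun g _ r => g.extendDomain_apply_not_subtype _ r.not_gt, hn, h1⟩

theorem fin_c {hn : n ≤ 1024} {h1 : 1 < n} {σ : Equiv.Perm (Fin n)} (q : Nat.beq v (pk (dg v) n) = true)
    (e : ∀ i : Fin n, (σ i : ℕ) = dg v i) : (fin hn h1).c σ = v :=
  (pk_congr fun i r => (σ.extendDomain_apply_subtype Fin.equivSubtype r).trans (e ⟨i, r⟩)).trans (beq_iff.1 q).symm

theorem of_reps {Ω : Type*} [MulAction G Ω] {D : Dom Ω n} {N : List Net} {f : ℕ → G} (h : Reps D N f)
    (t : closure (Set.range f) = ⊤) (k : Faithful D (⊤ : Subgroup G)) (hn : n ≤ 1024) (h1 : 1 < n) :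
    ∃ C : Cd G n, ∀ w, C.c (ev f w) = pk (appW N w) n := by
  obtain ⟨ψ, q⟩ := Fisch.Reps.toPG h t
  refine ⟨⟨(Subgroup.subtype _).comp ψ, (injective_iff_map_eq_one _).2 fun x e => k x trivial
    (q.eq_one.1 (Subtype.ext e)), fun g => Fisch.PG.supp h.wf (ψ g).2, hn, h1⟩, fun w => pk_congr fun i r => ?_⟩
  rw [h.wf.appW_eq w r]
  exact congrArg (fun σ : Equiv.Perm ℕ => σ i) ((q.acts _).unique (h.acts_ev w))

/-- restriction to the first `m` points -/
theorem iso {G' : Type*} [Group G'] {m : ℕ} (C' : Cd G' m) (hm : m ≤ n) (a : C.In ⊤ S) {T : List ℕ} (b : C'.In ⊤ T)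
    (e : lmap (fun v => pk (dg v) m) S = T) (t : C'.cl T = ⊤) (k : Nat.card (C.cl S) = Nat.card G') :
    Nonempty (G' ≃* C.cl S) := by
  have := C.finite
  have := C'.finite
  let R : Subgroup (G × G') :=
    { carrier := {z | ∀ i < m, C.p z.1 i = C'.p z.2 i}
      one_mem' := fun i _ => by simp
      mul_mem' := fun {a b} p q i r => by
        simp only [Prod.fst_mul, Prod.snd_mul, map_mul, Equiv.Perm.mul_apply, q i r, p _ (C'.lt _ r)]
      inv_mem' := fun {a} p i r => by
        simp only [Prod.fst_inv, Prod.snd_inv, map_inv]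
        rw [Equiv.Perm.inv_eq_iff_eq, p _ ((C'.sp _).inv.lt r), papp_inv] }
  rw [lmap_eq] at e
  have u : ∀ {x y}, pk (dg (C.c x)) m = C'.c y → (x, y) ∈ R := fun {x y} q i r => by
    rw [← C'.dg_c y r, ← q, dg_pk (fun j s => by
      rw [C.dg_c x (s.trans_le hm)]; exact (C.lt x (s.trans_le hm)).trans_le C.hn) r, C.dg_c x (r.trans_le hm)]
  have l : C.cl S ≤ R.map (MonoidHom.fst G G') := C.cl_le.2 fun x p =>
    let ⟨y, _, q⟩ := b _ (e ▸ List.mem_map_of_mem p); ⟨(x, y), u q.symm, rfl⟩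
  choose ψ hψ using fun x : C.cl S => show ∃ y, (x.1, y) ∈ R from let ⟨z, p, q⟩ := l x.2; ⟨z.2, q ▸ p⟩
  have un : ∀ {x y y'}, (x, y) ∈ R → (x, y') ∈ R → y = y' := fun p q => C'.ext fun i r => (p i r).symm.trans (q i r)
  let φ : C.cl S →* G' := MonoidHom.mk' ψ fun a b => un (hψ _) (mul_mem (hψ a) (hψ b))
  have s : Function.Surjective φ := MonoidHom.range_eq_top.1 (eq_top_iff.2 (t.ge.trans (C'.cl_le.2 fun y p => by
    obtain ⟨v, q', r⟩ := List.mem_map.1 (e ▸ p)
    obtain ⟨x, q, rfl⟩ := a.cl v q'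
    exact ⟨⟨x, q⟩, un (hψ _) (u r)⟩)))
  exact ⟨(MulEquiv.ofBijective φ ((Nat.bijective_iff_surjective_and_card _).2 ⟨s, k⟩)).symm⟩

end Cd
end CF.Bf
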