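/-
Long class walks with a perfect hash, fusion trees, a bundle of rewriting rules.
-/
import Cfsg.Agent.Bf.A
set_option autoImplicit false

namespace CF.Bf
open CF.Comp Subgroup Finset

noncomputable def im (a b : Bool) : Bool := Bool.rec true b a
noncomputable def nt (a : Bool) : Bool := Bool.rec true false a

noncomputable def hsh (P Q R : Nat) (D : List Nat) (v : Nat) : Nat := force (Nat.mod v Q) fun q =>
  Nat.mod (Nat.add (Nat.mod v P) (Nat.land (Nat.shiftRight (nth (nat_lit 0) D (Nat.shiftRight q (nat_lit 7)))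
    (Nat.mul (nat_lit 16) (Nat.land q (nat_lit 127)))) (nat_lit 65535))) R

noncomputable def wk (n : Nat) (f : Nat → Nat) (S : List Nat) (k : Nat → Nat → Nat → Nat) (l : Nat) :
    Nat → Nat → Nat → Nat → Nat :=
  Nat.rec (motive := fun _ => Nat → Nat → Nat → Nat → Nat) (fun _ => k) (fun _ ih K v M a =>
    force (cjc n (nth (idc n) S (Nat.land K (nat_lit 7))) v) fun v => force (f v) fun h =>
      force (Nat.shiftRight K (nat_lit 3)) fun K =>
      Bool.rec (force (Nat.lor M (Nat.shiftLeft (nat_lit 1) h)) fun M => force (Nat.succ a) (ih K v M)) (ih K v M a)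
        (tb M h)) l

noncomputable def wlk (n : Nat) (f : Nat → Nat) (S Ks : List Nat) : Nat → Nat → Nat → Nat :=
  List.rec (motive := fun _ => Nat → Nat → Nat → Nat) (fun _ _ a => a) (fun K _ ih => wk n f S ih (nat_lit 64) K) Ks

/-- every member of the list is moved to a later member or into `R` -/
noncomputable def trOK (n : Nat) (S R xs : List Nat) : List Nat → Bool :=
  List.rec (motive := fun _ => List Nat → Bool) (fun _ => true) (fun x xs ih ks =>
    List.rec (motive := fun _ => Bool) false (fun k ks _ => force (cjc n (nth (idc n) S k) x) fun y =>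
      Bool.rec false (ih ks) (Bool.rec (isIn y R) true (isIn y xs))) ks) xs

theorem im_iff {a b : Bool} : im a b = true ↔ (a = true → b = true) := brec_imp
theorem nt_iff {a : Bool} : nt a = true ↔ ¬ a = true := bnot_iff

namespace Cd
variable {n : ℕ} {G : Type*} [Group G] {C : Cd G n} {x y g : G} {K L : Subgroup G} {S T : List ℕ}

theorem wlk_le (a : C.In K S) (f : ℕ → ℕ) (ks : List ℕ) (r : G) :
    wlk n f S ks (C.c r) 0 0 ≤ (centralizer {r}).relIndex K := by
  classical
  have := C.finite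
  let Gd (k : ℕ → ℕ → ℕ → ℕ) : Prop := ∀ (g : G) (M : ℕ) (s : Finset G), g ∈ K →
    (∀ y ∈ s, (∃ z ∈ K, z * r * z⁻¹ = y) ∧ M.testBit (f (C.c y))) →
      ∃ t : Finset G, (∀ y ∈ t, ∃ z ∈ K, z * r * z⁻¹ = y) ∧ k (C.c (g * r * g⁻¹)) M #s = #t
  have k1 : ∀ k, Gd k → ∀ l A, Gd (wk n f S k l A) := fun k b l => by
    induction l with
    | zero => exact fun _ => b
    | succ l ih =>
      intro A g M s m q
      obtain ⟨x, p, e⟩ := a.nth (Nat.land A 7)
      rw [show wk n f S k (l + 1) A (C.c (g * r * g⁻¹)) M #s = force (cjc n (nth (idc n) S (Nat.land A 7))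
        (C.c (g * r * g⁻¹))) fun v => force (f v) fun h => force (Nat.shiftRight A 3) fun A =>
          Bool.rec (force (M ||| Nat.shiftLeft (nat_lit 1) h) fun M => force (#s + 1) (wk n f S k l A v M))
          (wk n f S k l A v M #s) (tb M h) from rfl, force_eq, force_eq, force_eq, ← e, C.cj, tb_eq,
        show x * (g * r * g⁻¹) * x⁻¹ = x * g * r * (x * g)⁻¹ by group]
      cases u : M.testBit (f (C.c (x * g * r * (x * g)⁻¹)))
      · rw [force_eq, force_eq, ← card_insert_of_notMem (a := x * g * r * (x * g)⁻¹) fun v => nomatch u.symm.trans (q _ v).2]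
        refine ih _ _ _ _ (mul_mem p m) fun y v => ?_
        rw [Nat.testBit_or, one_shl]
        rcases mem_insert.1 v with rfl | v
        · exact ⟨⟨_, mul_mem p m, rfl⟩, by simp⟩
        · exact ⟨(q y v).1, by simp [(q y v).2]⟩
      · exact ih _ _ _ _ (mul_mem p m) q
  have k : Gd (wlk n f S ks) := by
    induction ks with
    | nil => exact fun g M s _ q => ⟨s, fun y m => (q y m).1, rfl⟩
    | cons k ks ih => exact k1 _ ih (nat_lit 64) k
  obtain ⟨t, p, e⟩ := k 1 0 ∅ (one_mem _) (by simp)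
  rw [one_mul, inv_one, mul_one, Finset.card_empty] at e
  let _ := MulAction.compHom G (MulAut.conj (G := G))
  rw [e, ← inf_relIndex_right, inf_comm, show K ⊓ centralizer {r} = stabIn K r from Subgroup.ext fun x =>
    and_congr_right' (mem_centralizer_singleton_iff.trans mul_inv_eq_iff_eq_mul.symm), relIndex_stabIn,
    ← Set.ncard_coe_finset]
  exact Set.ncard_le_ncard p (Set.toFinite _)

theorem In.tr (a : C.In K S) {R xs ks : List ℕ} (q : trOK n S R xs ks = true) (m : C.c x ∈ xs) :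
    ∃ g ∈ K, C.c (g * x * g⁻¹) ∈ R := by
  induction xs generalizing ks x with
  | nil => exact nomatch m
  | cons v xs ih =>
    cases ks with
    | nil => exact nomatch q
    | cons k ks =>
      rw [show trOK n S R (v :: xs) (k :: ks) = force (cjc n (Comp.nth (idc n) S k) v) fun y =>
        Bool.rec false (trOK n S R xs ks) (Bool.rec (isIn y R) true (isIn y xs)) from rfl, force_eq] at q
      obtain ⟨p, q'⟩ := brec_and.1 q
      rcases List.mem_cons.1 m with rfl | m
      · obtain ⟨y, u, e⟩ := a.nth k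
        rw [← e, C.cj, brec_or, isIn_iff, isIn_iff] at p
        refine p.elim (fun p => ?_) fun p => ⟨y, u, p⟩
        obtain ⟨g, w, t⟩ := ih q' p
        exact ⟨g * y, mul_mem w u, by rwa [show g * y * x * (g * y)⁻¹ = g * (y * x * y⁻¹) * g⁻¹ by group]⟩
      · exact ih q' m

variable (C) in
theorem bf : (∀ x y, mulc n (C.c x) (C.c y) = C.c (x * y)) ∧ (∀ x, invc n (C.c x) = C.c x⁻¹) ∧
    (∀ g x, cjc n (C.c g) (C.c x) = C.c (g * x * g⁻¹)) ∧ (∀ x k, powc n (C.c x) k = C.c (x ^ k)) ∧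
    (∀ x y, comc n (C.c x) (C.c y) = true ↔ x ∈ centralizer {y}) ∧ (∀ x, Bf.isI n (C.c x) = true ↔ x = 1) ∧
    (∀ x, Bf.sqI n (C.c x) = true ↔ x * x = 1) ∧ (∀ x y, Nat.beq (C.c x) (C.c y) = true ↔ x = y) ∧
    (∀ a b, im a b = true ↔ (a = true → b = true)) ∧ (∀ a, nt a = true ↔ ¬ a = true) ∧
    (∀ a b : Bool, (a && b) = true ↔ a = true ∧ b = true) ∧ (∀ a b : Bool, (a || b) = true ↔ a = true ∨ b = true) :=
  ⟨fun _ _ => C.mul, fun _ => C.inv, fun _ _ => C.cj, fun _ => C.pow,
    fun _ _ => C.com.trans mem_centralizer_singleton_iff.symm, fun _ => C.isI, fun _ => C.sqI, fun _ _ => C.beq,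
    fun _ _ => im_iff, fun _ => nt_iff, fun _ _ => Bool.and_eq_true_iff, fun _ _ => Bool.or_eq_true_iff⟩

theorem top_of {c : List Lv} (b : C.In ⊤ (gn c)) (q : chk n c = true) (k : Nat.card G = ord n c) : C.Ch c ⊤ :=
  have := C.finite
  eq_top_of_card_eq _ ((ch b q).card.trans k.symm) ▸ ch b q

/-- a group acting on numbered points whose order is that of the chain -/
theorem of_rep [Finite G] {Ω : Type*} [MulAction G Ω] {D : Dom Ω n} {N : List Net} {f : ℕ → G} (h : Reps D N f)
    (hn : n ≤ 1024) (h1 : 1 < n) {ws : List (List ℕ)} {c : List Lv}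
    (q : (leq (lmap (fun w => pk (appW N w) n) ws) (gn c) && chk n c) = true) (k : Nat.card G = ord n c) :
    ∃ C : Cd G n, C.Ch c ⊤ := by
  obtain ⟨C, e⟩ := of_reps (Fisch.PG.reps h.wf) Fisch.pg_top (Fisch.PG.faithful h.wf ⊤) hn h1
  obtain ⟨a, b⟩ := Bool.and_eq_true_iff.1 q
  rw [leq_iff, lmap_eq] at a
  have i : C.In ⊤ (gn c) := fun v m => let ⟨w, _, t⟩ := List.mem_map.1 (a ▸ m); ⟨_, trivial, (e w).trans t⟩
  obtain ⟨ψ, h2⟩ := Fisch.Reps.toPG (Bt.reps_sub h (H := closure (Set.range f)) fun i => subset_closure ⟨i, rfl⟩)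
    (Fisch.clo_range_top f)
  have h3 := MonoidHom.range_eq_top.2 h2.surj
  have := C.finite
  obtain ⟨u, -⟩ := Bt.exists_equiv_of_card ψ (by rw [h3, k, ← (ch i b).card]; exact card_le_of_le le_top)
  let u := (topEquiv.symm.trans ((MulEquiv.subgroupCongr h3.symm).trans u)).symm
  exact ⟨⟨C.p.comp u.toMonoidHom, C.inj.comp u.injective, fun g => C.sp _, hn, h1⟩, top_of
    (fun v m => let ⟨x, _, t⟩ := i v m; ⟨u.symm x, trivial, (congrArg C.c (u.apply_symm_apply x)).trans t⟩) b k⟩

namespace Ch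
variable {c c' : List Lv} (h : C.Ch c K)
include h

theorem bf : (∀ x, Bf.mem n c (C.c x) = true ↔ x ∈ K) ∧ (∀ Φ, Bf.all n c Φ = true ↔ ∀ x ∈ K, Φ (C.c x) = true) ∧
    (∀ Φ, Bf.any n c Φ = true ↔ ∃ x ∈ K, Φ (C.c x) = true) ∧
    ∀ x, lall (comc n (C.c x)) (gn c) = true ↔ x ∈ centralizer (K : Set G) :=
  ⟨fun _ => h.mem, fun _ => h.all, fun _ => h.any, fun _ => h.cen⟩

/-- a chain for the centralizer -/
theorem cz {f : ℕ → ℕ} {ks : List ℕ} {r : G} {v : ℕ} (e : C.c r = v)
    (q : (lall (fun v => can n v && Bf.mem n c v) (gn c') && chk n c') = true)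
    (q₁ : (lall (fun v => can n v && Bf.mem n c v) S && lall (comc n v) (gn c')) = true)
    (q₂ : Nat.ble (ord n c) (Nat.mul (wlk n f S ks v 0 0) (ord n c')) = true) : C.Ch c' (K ⊓ centralizer {r}) := by
  have := C.finite
  subst e
  obtain ⟨L, l, k⟩ := h.sub q
  obtain ⟨a, b⟩ := Bool.and_eq_true_iff.1 q₁
  refine (eq_of_le_of_card_le (le_inf l (k.cent b)) ?_) ▸ k
  have e := card_eq_card_quotient_mul_card_subgroup ((centralizer {r}).subgroupOf K)
  rw [← index_eq_card, ← relIndex, ← inf_subgroupOf_right, Nat.card_congr (subgroupOfEquivOfLe inf_le_right).toEquiv,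
    inf_comm] at e
  have := (ble_iff.1 q₂).trans (Nat.mul_le_mul_right _ (wlk_le (h.rlz a) f ks r))
  rw [← h.card, ← k.card, e] at this
  exact Nat.le_of_mul_le_mul_left this (Nat.pos_of_ne_zero index_ne_zero_of_finite)

/-- a chain for an intersection, by enumeration -/
theorem inf {Φ : ℕ → Bool} (e : ∀ x, Φ (C.c x) = true ↔ x ∈ L)
    (q : (lall (fun v => can n v && Bf.mem n c v) (gn c') && chk n c') = true)
    (q₁ : (lall Φ (gn c') && Bf.all n c fun v => im (Φ v) (Bf.mem n c' v)) = true) : C.Ch c' (K ⊓ L) := by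
  obtain ⟨M, l, k⟩ := h.sub q
  obtain ⟨a, b⟩ := Bool.and_eq_true_iff.1 q₁
  exact le_antisymm (le_inf l (k.le fun x m => (e x).1 (lall_iff.1 a _ m)))
    (fun x m => k.mem.1 (im_iff.1 (h.all.1 b x m.1) ((e x).2 m.2))) ▸ k

end Ch
end Cd
end CF.Bf
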