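/-
Splitting long conjugation walks.
-/
import Cfsg.Agent.Bf.E
set_option autoImplicit false

namespace CF.Bf
open CF.Comp Subgroup Finset

noncomputable def wlc (n : Nat) (f : Nat → Nat) (S : List Nat) (k : Nat → Nat → Nat → Nat) (Ks : List Nat) :
    Nat → Nat → Nat → Nat :=
  List.rec (motive := fun _ => Nat → Nat → Nat → Nat) k (fun K _ ih => wk n f S ih (nat_lit 64) K) Ks

noncomputable def eq3 (v M a x y z : Nat) : Nat :=
  Bool.rec (nat_lit 0) (nat_lit 1) (Nat.beq x v && Nat.beq y M && Nat.beq z a)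

variable {n : ℕ} {f : ℕ → ℕ} {S : List ℕ}

theorem wk_st (l K v M a : ℕ) : ∃ x y z, ∀ k, wk n f S k l K v M a = k x y z := by
  induction l generalizing K v M a with
  | zero => exact ⟨v, M, a, fun _ => rfl⟩
  | succ l ih =>
    have e : ∀ k, wk n f S k (l + 1) K v M a = force (cjc n (nth (idc n) S (Nat.land K 7)) v) fun v =>
      force (f v) fun h => force (Nat.shiftRight K 3) fun A =>
        Bool.rec (force (M ||| Nat.shiftLeft (nat_lit 1) h) fun M => force (a + 1) (wk n f S k l A v M))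
          (wk n f S k l A v M a) (tb M h) := fun _ => rfl
    simp only [e, force_eq]
    cases tb M _ <;> exact ih ..

theorem wlc_cons (k : ℕ → ℕ → ℕ → ℕ) (K : ℕ) (Ks : List ℕ) :
    wlc n f S k (K :: Ks) = wk n f S (wlc n f S k Ks) (nat_lit 64) K := rfl

theorem wlk_cons (K : ℕ) (Ks : List ℕ) : wlk n f S (K :: Ks) = wk n f S (wlk n f S Ks) (nat_lit 64) K := rfl

theorem wlc_st (Ks : List ℕ) (v M a : ℕ) : ∃ x y z, ∀ k, wlc n f S k Ks v M a = k x y z := by
  induction Ks generalizing v M a with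
  | nil => exact ⟨v, M, a, fun _ => rfl⟩
  | cons K Ks ih =>
    obtain ⟨x, y, z, e⟩ := wk_st (n := n) (f := f) (S := S) (nat_lit 64) K v M a
    obtain ⟨x', y', z', e'⟩ := ih x y z
    exact ⟨x', y', z', fun k => by rw [wlc_cons, e, e']⟩

theorem wlk_app {A B : List ℕ} {v M a x y z : ℕ} (q : Nat.beq (wlc n f S (eq3 x y z) A v M a) 1 = true) :
    wlk n f S (lapp A B) v M a = wlk n f S B x y z := by
  have e : ∀ A : List ℕ, wlk n f S (lapp A B) = wlc n f S (wlk n f S B) A := fun A => by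
    induction A with
    | nil => rfl
    | cons K A ih => rw [wlc_cons, ← ih, ← wlk_cons]; rfl
  obtain ⟨x', y', z', t⟩ := wlc_st (n := n) (f := f) (S := S) A v M a
  rw [t, beq_iff, eq3] at q
  cases u : (Nat.beq x' x && Nat.beq y' y && Nat.beq z' z)
  · rw [u] at q; exact nomatch q
  · simp only [Bool.and_eq_true, beq_iff] at u
    rw [e, t, u.1.1, u.1.2, u.2]

end CF.Bf
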